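import Cfsg.Agent.H56.Exc.Full
import Cfsg.Agent.H504.ZerosIso
import Cfsg.Agent.H504.Zeros

/-!
# Overgroups of a cyclic subgroup equal to the centralizers of its elements (helper811, S3938)

`s` of order `a`; for all primes `r ∣ a` the property `Big T r a e`:
* `cent_eq` : `C(y) = ⟨s⟩` for all `1 ≠ y ∈ ⟨s⟩`;
* `le_norm` : an overgroup `K` of `s` with `|K| ∣ e a`, `e < a`, lies in `N(⟨s⟩)`;
* `mod_eq` : `|T| = a N` with `N ≡ k` modulo `a`, `k ∣ e`, `1 ≤ k`.
-/

set_option autoImplicit false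

namespace Cfsg.Agent.H811.Spr

open Subgroup Cfsg.Agent.H56.Exc

variable {T : Type*} [Group T] [Finite T] {s : T} {a e : ℕ}

/-- all the prime divisors of `a` are big, with the same data -/
def AllBig (T : Type*) [Group T] (a e : ℕ) : Prop := ∀ r : ℕ, r.Prime → r ∣ a → Big T r a e

theorem AllBig.subgroup (h : AllBig T a e) (H : Subgroup T) : AllBig H a e := fun r hr hra => (h r hr hra).subgroup H

theorem cent_eq (hb : AllBig T a e) (hs : orderOf s = a) (y : T) (hy : y ∈ zpowers s) (hy1 : y ≠ 1) :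
    centralizer {y} = zpowers s := by
  have ha : 0 < a := by rw [← hs]; exact orderOf_pos s
  have hn1 : orderOf y ≠ 1 := fun h => hy1 (orderOf_eq_one_iff.1 h)
  obtain ⟨r, hr, hry⟩ := Nat.exists_prime_and_dvd hn1
  have hya : orderOf y ∣ a := by rw [← hs]; exact orderOf_dvd_of_mem_zpowers hy
  have hb' := hb r hr (hry.trans hya)
  obtain ⟨k, hk⟩ := hry
  have hk0 : k ≠ 0 := by
    rintro rfl
    rw [mul_zero] at hk
    exact (orderOf_pos y).ne' hk
  have hx : orderOf (y ^ k) = r := by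
    rw [orderOf_pow_of_dvd hk0 ⟨r, by rw [hk, mul_comm]⟩, hk, Nat.mul_div_cancel _ (Nat.pos_of_ne_zero hk0)]
  have h1 : zpowers s ≤ centralizer {y} := by
    rintro _ ⟨i, rfl⟩
    obtain ⟨j, rfl⟩ := hy
    rw [mem_centralizer_singleton_iff]
    exact ((Commute.refl s).zpow_zpow i j)
  have h2 : centralizer {y} ≤ centralizer {y ^ k} := by
    intro z hz
    rw [mem_centralizer_singleton_iff] at hz ⊢
    exact (show Commute z y from hz).pow_right k
  refine (eq_of_le_of_card_ge h1 ?_).symm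
  rw [Nat.card_zpowers, hs]
  exact (Nat.le_of_dvd ha (card_dvd_of_le h2 |>.trans (hb'.card _ hx)))

theorem norm_eq (hb : AllBig T a e) (hs : orderOf s = a) {y g : T} (hy : y ∈ zpowers s) (hy1 : y ≠ 1)
    (hg : g * y * g⁻¹ ∈ zpowers s) : g ∈ normalizer (zpowers s : Set T) := by
  have h1 : g * y * g⁻¹ ≠ 1 := by
    intro h
    apply hy1
    have := congrArg (fun z => g⁻¹ * z * g) h
    simpa [mul_assoc] using this
  have hC1 := cent_eq hb hs y hy hy1
  have hC2 := cent_eq hb hs _ hg h1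
  rw [mem_normalizer_iff]
  intro z
  show z ∈ zpowers s ↔ g * z * g⁻¹ ∈ zpowers s
  rw [← hC1, mem_centralizer_singleton_iff]
  conv_rhs => rw [hC1, ← hC2, mem_centralizer_singleton_iff]
  constructor
  · intro hh
    calc g * z * g⁻¹ * (g * y * g⁻¹) = g * (z * y) * g⁻¹ := by group
      _ = g * (y * z) * g⁻¹ := by rw [hh]
      _ = g * y * g⁻¹ * (g * z * g⁻¹) := by group
  · intro hh
    have h3 := congrArg (fun y => g⁻¹ * y * g) hh
    simpa [mul_assoc] using h3

/-- a small overgroup of `s` normalises `⟨s⟩` -/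
theorem le_norm (hb : AllBig T a e) (hs : orderOf s = a) (hea : e < a) {K : Subgroup T} (hsK : s ∈ K)
    (hK : Nat.card K ∣ e * a) (he : 0 < e) : K ≤ normalizer (zpowers s : Set T) := by
  intro g hg
  by_contra hcon
  -- the intersection of `⟨s⟩` and its conjugate is trivial
  let A : Subgroup T := zpowers s
  let B : Subgroup T := A.map (MulAut.conj g).toMonoidHom
  have hAK : A ≤ K := by rwa [zpowers_le]
  have hBK : B ≤ K := by
    rintro _ ⟨y, hy, rfl⟩
    exact K.mul_mem (K.mul_mem hg (hAK hy)) (K.inv_mem hg)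
  have hAc : Nat.card A = a := by rw [Nat.card_zpowers, hs]
  have hinf : B ⊓ A = ⊥ := by
    rw [eq_bot_iff]
    rintro _ ⟨⟨y, hy, rfl⟩, hz⟩
    rw [mem_bot]
    by_contra hne
    have hy1 : y ≠ 1 := by
      rintro rfl
      exact hne (map_one _)
    exact hcon (norm_eq hb hs hy hy1 hz)
  have ha : 0 < a := by rw [← hs]; exact orderOf_pos s
  have hrel : B.relIndex A = a := by
    rw [← inf_relIndex_right, hinf, relIndex_bot_left, hAc]
  have hle : B.relIndex A ≤ B.relIndex K := by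
    apply relIndex_le_of_le_right hAK
    exact Subgroup.index_ne_zero_of_finite (H := B.subgroupOf K)
  have hBc : Nat.card B = a := by
    rw [← hAc]
    exact (Nat.card_congr (A.equivMapOfInjective _ (MulAut.conj g).injective).toEquiv).symm
  have h1 : Nat.card B * B.relIndex K = Nat.card K := by
    rw [← relIndex_bot_left B, relIndex_mul_relIndex _ _ _ bot_le hBK, relIndex_bot_left]
  rw [hBc] at h1
  have h2 : B.relIndex K ∣ e := by
    rw [← h1, mul_comm e a] at hK
    exact Nat.dvd_of_mul_dvd_mul_left ha hK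
  have h3 := Nat.le_of_dvd he h2
  omega

/-- the congruence for the order -/
theorem mod_eq (hb : AllBig T a e) (hs : orderOf s = a) (h1 : 1 < a) {N : ℕ} (hN : Nat.card T = a * N) :
    ∃ k, k ∣ e ∧ 1 ≤ k ∧ N % a = k := by
  have hcard : Nat.card (zpowers s) = a := by rw [Nat.card_zpowers, hs]
  have hcc : Cfsg.Agent.H504.ZeroTI.CC (zpowers s) := by
    refine ⟨?_, cent_eq hb hs⟩
    rintro _ ⟨i, rfl⟩ _ ⟨j, rfl⟩
    exact ((Commute.refl s).zpow_zpow i j)
  have h2 := Cfsg.Agent.H504.Zeros.eIdx_eq_mod hcc (by omega) (n := N) (by rw [hcard]; exact hN)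
  refine ⟨Cfsg.Agent.H504.ZeroTI.eIdx (zpowers s), ?_, Nat.pos_of_ne_zero Subgroup.index_ne_zero_of_finite, ?_⟩
  · obtain ⟨r, hr, hra⟩ := Nat.exists_prime_and_dvd h1.ne'
    obtain ⟨k, hk⟩ := hra
    have hk0 : k ≠ 0 := by
      rintro rfl
      omega
    have hx : orderOf (s ^ k) = r := by
      rw [orderOf_pow_of_dvd hk0 ⟨r, by rw [hs, hk, mul_comm]⟩, hs, hk, Nat.mul_div_cancel _ (Nat.pos_of_ne_zero hk0)]
    have h3 := (hb r hr ⟨k, hk⟩).card_normalizer_dvd hx
    have h4 : normalizer (zpowers s : Set T) ≤ normalizer (zpowers (s ^ k) : Set T) := by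
      intro g hg
      rw [mem_normalizer_iff] at hg ⊢
      have hmem : ∀ z : T, z ∈ zpowers (s ^ k) ↔ z ∈ zpowers s ∧ z ^ r = 1 := by
        intro z
        constructor
        · rintro ⟨i, rfl⟩
          refine ⟨zpow_mem (pow_mem (mem_zpowers s) k) i, ?_⟩
          rw [← zpow_natCast, ← zpow_mul, mul_comm, zpow_mul, zpow_natCast, ← hx, pow_orderOf_eq_one, one_zpow]
        · rintro ⟨hz, hzr⟩
          have hc : IsCyclic ↥(zpowers s) := inferInstance
          refine mem_zpowers_of_cyclic hc (pow_mem (mem_zpowers s) k) hz ?_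
          rw [hx]
          exact orderOf_dvd_of_pow_eq_one hzr
      intro z
      have h5 : z ∈ zpowers s ↔ g * z * g⁻¹ ∈ zpowers s := hg z
      show z ∈ zpowers (s ^ k) ↔ g * z * g⁻¹ ∈ zpowers (s ^ k)
      rw [hmem, hmem, ← h5, conj_pow]
      constructor
      · rintro ⟨h6, h7⟩
        exact ⟨h6, by rw [h7, mul_one, mul_inv_cancel]⟩
      · rintro ⟨h6, h7⟩
        refine ⟨h6, ?_⟩
        have := congrArg (fun y => g⁻¹ * y * g) h7
        simpa [mul_assoc] using this
    have h5 := (card_dvd_of_le h4).trans h3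
    rw [← Cfsg.Agent.H504.Zeros.eIdx_mul, hcard, mul_comm e a] at h5
    exact Nat.dvd_of_mul_dvd_mul_left (by omega) h5
  · rw [h2, hcard]

end Cfsg.Agent.H811.Spr
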